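import Cfsg.Agent.H202.Psu
import Cfsg.Agent.ClassicalGeometry.HermOrtho
import Cfsg.Agent.H459.Rad
import Cfsg.Agent.S0281
import Cfsg.Agent.TwoFusion.SLTwoFacts
import Cfsg.Agent.SignalizersComponents.LayerBasic

/-!
# Radical automorphisms of `PSU_3(q)`, `q ≥ 4`, fixing a non-isotropic point (helper844)

`field_eq_one` : a standard field automorphism with `RC` is trivial;
`scalar_of_fix` : `A ∈ GU_3(q)` with `RC (f₁ A)` and a non-isotropic eigenvector is a scalar.
-/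

set_option autoImplicit false
set_option linter.unusedSectionVars false

namespace Cfsg.Agent.H844.AAU

open Cfsg Matrix Cfsg.Agent.LieClassical.HermBasic Cfsg.Agent.LieClassical.HermSiegel
  Cfsg.Agent.ClassicalGeometry.PSUAutCount Cfsg.Agent.Schreier.PSU
  Cfsg.Agent.ClassicalGeometry.HermOrtho Cfsg.Agent.H459.Rad
open Cfsg.Agent.ClassicalGeometry.UnitAutBasic (pr pr_surjective exists_scalar_of_pr_eq)

variable {F : Type*} [Field F] [Fintype F] {q : ℕ}

/-- the relations between the entries of an element of `SU 2` -/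
theorem su2_entries (hF : Fintype.card F = q ^ 2) (g : SU 2 F q) :
    (mat g 0 0) ^ q = mat g 1 1 ∧ (mat g 0 1) ^ q = -mat g 1 0 ∧ (mat g 1 0) ^ q = -mat g 0 1 ∧
      (mat g 1 1) ^ q = mat g 0 0 ∧ mat g 0 0 * mat g 1 1 - mat g 0 1 * mat g 1 0 = 1 := by
  have h := (S0281.mem_SU_two_iff hF g.1).1 g.2
  have h1 : (mat g 0 0) ^ q = mat g 1 1 := h.1
  have h2 : (mat g 0 1) ^ q = -mat g 1 0 := h.2
  refine ⟨h1, h2, ?_, ?_, ?_⟩
  · have : mat g 1 0 = -(mat g 0 1) ^ q := by rw [h2, neg_neg]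
    rw [this, neg_pow_q hF, pow_q_pow_q hF]
  · rw [← h1, pow_q_pow_q hF]
  · have := det_mat g
    rwa [Matrix.det_fin_two] at this

/-- the element of `SU 2` with first column `(a, b)` -/
theorem exists_su2 (hF : Fintype.card F = q ^ 2) {a b : F} (h : a * a ^ q + b * b ^ q = 1) :
    ∃ g : SU 2 F q, mat g = !![a, -b ^ q; b, a ^ q] := by
  have hdet : (!![a, -b ^ q; b, a ^ q] : Matrix (Fin 2) (Fin 2) F).det = 1 := by
    rw [Matrix.det_fin_two_of]; linear_combination h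
  refine ⟨⟨⟨_, hdet⟩, (S0281.mem_SU_two_iff hF _).2 ⟨by simp, ?_⟩⟩, rfl⟩
  simp [neg_pow_q hF, pow_q_pow_q hF]

/-- the block matrix -/
def blk (m : Matrix (Fin 2) (Fin 2) F) : Matrix (Fin 3) (Fin 3) F :=
  !![1, 0, 0; 0, m 0 0, m 0 1; 0, m 1 0, m 1 1]

omit [Fintype F] in
theorem blk_mulVec (m : Matrix (Fin 2) (Fin 2) F) (v : Fin 3 → F) :
    blk m *ᵥ v = ![v 0, m 0 0 * v 1 + m 0 1 * v 2, m 1 0 * v 1 + m 1 1 * v 2] := by
  funext i
  fin_cases i <;> simp [blk, Matrix.mulVec, dotProduct, Fin.sum_univ_three]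

omit [Fintype F] in
theorem blk_mul (m m' : Matrix (Fin 2) (Fin 2) F) : blk (m * m') = blk m * blk m' := by
  ext i j
  fin_cases i <;> fin_cases j <;> simp [blk, Matrix.mul_apply, Fin.sum_univ_two, Fin.sum_univ_three]

omit [Fintype F] in
theorem blk_one : blk (1 : Matrix (Fin 2) (Fin 2) F) = 1 := by
  ext i j
  fin_cases i <;> fin_cases j <;> simp [blk]

/-- the embedding `SU 2 → SU 3` -/
def emb1 (hF : Fintype.card F = q ^ 2) : SU 2 F q →* SU 3 F q where
  toFun g := mkSU (blk (mat g)) (by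
      have h := (su2_entries hF g).2.2.2.2
      rw [blk, Matrix.det_fin_three]
      simp
      linear_combination h) (by
      intro u v
      obtain ⟨h1, h2, h3, h4, h5⟩ := su2_entries hF g
      rw [blk_mulVec, blk_mulVec]
      simp only [herm_def, Fin.sum_univ_three]
      simp only [Matrix.cons_val_zero, Matrix.cons_val_one, Matrix.cons_val, add_pow_q hF, mul_pow, h1, h2, h3, h4]
      linear_combination (u 1 * v 1 ^ q + u 2 * v 2 ^ q) * h5)
  map_one' := by
    apply mat_injective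
    rw [mat_mkSU, mat_one, blk_one, mat_one]
  map_mul' g h := by
    apply mat_injective
    rw [mat_mkSU, mat_mul, mat_mul, mat_mkSU, mat_mkSU, blk_mul]

theorem mat_emb1 (hF : Fintype.card F = q ^ 2) (g : SU 2 F q) : mat (emb1 hF g) = blk (mat g) := mat_mkSU _ _ _

theorem act_emb1 (hF : Fintype.card F = q ^ 2) (g : SU 2 F q) (v : Fin 3 → F) :
    act (emb1 hF g) v = ![v 0, mat g 0 0 * v 1 + mat g 0 1 * v 2, mat g 1 0 * v 1 + mat g 1 1 * v 2] := by
  rw [act_def, mat_emb1, blk_mulVec]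

theorem emb1_injective (hF : Fintype.card F = q ^ 2) : Function.Injective (emb1 (F := F) hF) := by
  intro g h e
  have h1 : blk (mat g) = blk (mat h) := by rw [← mat_emb1 hF, ← mat_emb1 hF, e]
  apply mat_injective
  ext i j
  fin_cases i <;> fin_cases j
  · exact congrFun (congrFun h1 1) 1
  · exact congrFun (congrFun h1 1) 2
  · exact congrFun (congrFun h1 2) 1
  · exact congrFun (congrFun h1 2) 2

/-- the first basis vector -/
abbrev e0 (F : Type*) [Field F] : Fin 3 → F := ![1, 0, 0]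

theorem emb1_e0 (hF : Fintype.card F = q ^ 2) (g : SU 2 F q) : act (emb1 hF g) (e0 F) = e0 F := by
  rw [act_emb1]; simp

/-- an element fixing `e0` lies in the image -/
theorem exists_emb1 (hF : Fintype.card F = q ^ 2) {h : SU 3 F q} (he : act h (e0 F) = e0 F) :
    ∃ g : SU 2 F q, emb1 hF g = h := by
  set M := mat h with hM
  have hc : ∀ i, M i 0 = (e0 F) i := by
    intro i
    have h1 := congrFun he i
    rw [act_def, ← hM] at h1
    simpa [Matrix.mulVec, dotProduct, Fin.sum_univ_three] using h1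
  have hrow : ∀ v : Fin 3 → F, hermForm 3 F q (act h v) (e0 F) = hermForm 3 F q v (e0 F) := by
    intro v
    conv_lhs => rw [← he]
    rw [herm_act]
  have hz : (0 : F) ^ q = 0 := zero_pow_q hF
  have hr : ∀ v : Fin 3 → F, (M *ᵥ v) 0 = v 0 := by
    intro v
    have h1 := hrow v
    simp only [herm_def, Fin.sum_univ_three, act_def, ← hM] at h1
    simpa [hz] using h1
  have hr1 : M 0 1 = 0 := by
    have := hr ![0, 1, 0]
    simpa [Matrix.mulVec, dotProduct, Fin.sum_univ_three] using this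
  have hr2 : M 0 2 = 0 := by
    have := hr ![0, 0, 1]
    simpa [Matrix.mulVec, dotProduct, Fin.sum_univ_three] using this
  have hc0 : M 0 0 = 1 := by have := hc 0; simpa using this
  have hc1 : M 1 0 = 0 := by have := hc 1; simpa using this
  have hc2 : M 2 0 = 0 := by have := hc 2; simpa using this
  set m : Matrix (Fin 2) (Fin 2) F := !![M 1 1, M 1 2; M 2 1, M 2 2] with hm
  have hblk : M = blk m := by
    ext i j
    fin_cases i <;> fin_cases j <;> simp [blk, hm, hr1, hr2, hc0, hc1, hc2]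
  have hdet : m.det = 1 := by
    have h1 : M.det = 1 := det_mat h
    rw [Matrix.det_fin_three, hr1, hr2, hc0, hc1, hc2] at h1
    rw [hm, Matrix.det_fin_two_of]
    linear_combination h1
  have hmem : (⟨m, hdet⟩ : Matrix.SpecialLinearGroup (Fin 2) F) ∈ SU 2 F q := by
    refine (mem_SU_iff (⟨m, hdet⟩ : Matrix.SpecialLinearGroup (Fin 2) F)).2 fun u v => ?_
    show hermForm 2 F q (m *ᵥ u) (m *ᵥ v) = hermForm 2 F q u v
    have h1 := herm_act h ![0, u 0, u 1] ![0, v 0, v 1]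
    rw [act_def, act_def, ← hM, hblk, blk_mulVec, blk_mulVec] at h1
    simp only [herm_def, Fin.sum_univ_three, Fin.sum_univ_two] at h1 ⊢
    simp only [Matrix.cons_val_zero, Matrix.cons_val_one, Matrix.cons_val, zero_mul, zero_add] at h1
    simp only [Matrix.mulVec, dotProduct, Fin.sum_univ_two]
    exact h1
  refine ⟨⟨⟨m, hdet⟩, hmem⟩, ?_⟩
  apply mat_injective
  rw [mat_emb1, ← hM, hblk]
  rfl

/-- `SU_2(q)` is quasisimple for `q ≥ 4` -/
theorem quasisimple_su2 (hF : Fintype.card F = q ^ 2) (hq : 4 ≤ q) : IsQuasisimple (SU 2 F q) := by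
  classical
  obtain ⟨p, k, hp, -, hqp, hk⟩ := exists_prime_pow hF
  have : Fact p.Prime := ⟨hp⟩
  have hfin : Finite (GaloisField p k) := inferInstance
  let _ : Fintype (GaloisField p k) := Fintype.ofFinite _
  have hcard : Fintype.card (GaloisField p k) = q := by
    rw [← Nat.card_eq_fintype_card, GaloisField.card p k (by omega), hqp]
  obtain ⟨e⟩ := S0281.result hF hcard
  have h3 : 3 < Fintype.card (GaloisField p k) := by omega
  refine Cfsg.Agent.SignalizersComponents.LayerBasic.quasisimple_congr e.symm ?_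
  exact ⟨Group.isPerfect_def.2 (TwoFusion.SLTwoFacts.commutator_eq_top h3), TwoFusion.SLTwoFacts.isSimpleGroup_psl h3⟩

/-- `SU 2 → PSU 3` -/
def phi (hF : Fintype.card F = q ^ 2) : SU 2 F q →* PSU 3 F q := (pr 3 F q).comp (emb1 hF)

theorem phi_apply (hF : Fintype.card F = q ^ 2) (g : SU 2 F q) : phi hF g = pr 3 F q (emb1 hF g) := rfl

theorem e0_ne_zero : (e0 F) ≠ 0 := by
  intro h
  have h1 := congrFun h 0
  simp at h1

/-- if `pr h = pr (emb1 g)` and `h e0 = e0` then `h = emb1 g` -/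
theorem eq_of_pr_eq (hF : Fintype.card F = q ^ 2) {g h : SU 3 F q} (e : pr 3 F q g = pr 3 F q h)
    (hg : act g (e0 F) = e0 F) (hh : act h (e0 F) = e0 F) : g = h := by
  obtain ⟨c, -, hc⟩ := exists_scalar_of_pr_eq hF le_rfl e
  have h1 := hc (e0 F)
  rw [hg, hh] at h1
  have h2 : c = 1 := by
    have h3 := congrFun h1 0
    simpa using h3.symm
  apply ext_act
  intro x
  rw [hc x, h2, one_smul]

theorem phi_injective (hF : Fintype.card F = q ^ 2) : Function.Injective (phi (F := F) hF) := by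
  intro g h e
  exact emb1_injective hF (eq_of_pr_eq hF e (emb1_e0 hF g) (emb1_e0 hF h))

/-- the permutation matrix `e0 → e1 → e2 → e0` -/
def cyc (hF : Fintype.card F = q ^ 2) : SU 3 F q := mkSU !![0, 0, 1; 1, 0, 0; 0, 1, 0] (by
    rw [Matrix.det_fin_three]; simp) (by
    intro u v
    simp only [herm_def, Fin.sum_univ_three]
    simp [Matrix.mulVec, dotProduct, Fin.sum_univ_three]
    ring)

theorem act_cyc (hF : Fintype.card F = q ^ 2) (v : Fin 3 → F) : act (cyc hF) v = ![v 2, v 0, v 1] := by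
  rw [act_def]
  have h : mat (cyc (F := F) hF) = !![0, 0, 1; 1, 0, 0; 0, 1, 0] := mat_mkSU _ _ _
  rw [h]
  funext i
  fin_cases i <;> simp [Matrix.mulVec, dotProduct, Fin.sum_univ_three]

theorem range_phi_ne_top (hF : Fintype.card F = q ^ 2) : (phi (F := F) hF).range ≠ ⊤ := by
  intro h
  have h1 : pr 3 F q (cyc hF) ∈ (phi (F := F) hF).range := by rw [h]; exact Subgroup.mem_top _
  obtain ⟨g, hg⟩ := h1
  obtain ⟨c, -, hc⟩ := exists_scalar_of_pr_eq hF le_rfl (show pr 3 F q (emb1 hF g) = pr 3 F q (cyc hF) from hg)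
  have h2 := hc (e0 F)
  rw [emb1_e0, act_cyc] at h2
  have h3 := congrFun h2 1
  simp at h3

/-- **`RC` and an eigenvector `e0`** -/
theorem semiConj_eq (hF : Fintype.card F = q ^ 2) (hq : 4 ≤ q) {A : GU 3 F q} {ρ : F ≃+* F} {γ : F}
    (hA : gm A *ᵥ e0 F = γ • e0 F) (h : RC (toAut A ρ)) (g : SU 2 F q) :
    semiConj A ρ (emb1 hF g) = emb1 hF g := by
  have hγ : γ ≠ 0 := by
    rintro rfl
    rw [zero_smul] at hA
    have h2 := gm_inv_mulVec A (e0 F)
    rw [hA, mulVec_zero] at h2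
    exact e0_ne_zero h2.symm
  have hρ : (fun i => ρ ((e0 F) i)) = e0 F := by
    funext i
    fin_cases i <;> simp
  have hfix : ∀ g : SU 3 F q, act g (e0 F) = e0 F → act (semiConj A ρ g) (e0 F) = e0 F := by
    intro g hg
    have h1 := act_semiConj A ρ g (e0 F)
    rw [hg, hρ, hA, act_smul] at h1
    have h2 := congrArg (fun x => γ⁻¹ • x) h1
    simpa [smul_smul, inv_mul_cancel₀ hγ] using h2
  have hinv : ∀ m ∈ (phi (F := F) hF).range, toAut A ρ m ∈ (phi (F := F) hF).range := by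
    rintro _ ⟨g, rfl⟩
    rw [phi_apply, toAut_pr]
    obtain ⟨g', hg'⟩ := exists_emb1 hF (hfix _ (emb1_e0 hF g))
    exact ⟨g', by rw [phi_apply, hg']⟩
  have hqs : IsQuasisimple (phi (F := F) hF).range :=
    Cfsg.Agent.SignalizersComponents.LayerBasic.quasisimple_congr
      (MonoidHom.ofInjective (phi_injective hF)) (quasisimple_su2 hF hq)
  have h1 := h.eq_of_quasisimple (range_phi_ne_top hF) hinv hqs (m := phi hF g) ⟨g, rfl⟩
  rw [phi_apply, toAut_pr] at h1
  exact eq_of_pr_eq hF h1 (hfix _ (emb1_e0 hF g)) (emb1_e0 hF g)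

/-- **Field automorphisms with `RC` are trivial.** -/
theorem field_eq_one (hF : Fintype.card F = q ^ 2) (hq : 4 ≤ q) {ρ : F ≃+* F}
    (h : RC (toAut (1 : GU 3 F q) ρ)) : ρ = 1 := by
  have hA : gm (1 : GU 3 F q) *ᵥ e0 F = (1 : F) • e0 F := by rw [gm_one, one_mulVec, one_smul]
  have key := semiConj_eq hF hq hA h
  ext a
  rw [RingAut.one_apply]
  obtain ⟨b, hb⟩ := exists_norm_eq hF (c := 1 - a * a ^ q) (by rw [sub_pow_q hF, one_pow, norm_pow_q hF])
  obtain ⟨g, hg⟩ := exists_su2 hF (a := a) (b := b) (by rw [hb]; ring)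
  have h1 := act_semiConj (1 : GU 3 F q) ρ (emb1 hF g) ![0, 1, 0]
  rw [key g, gm_one, one_mulVec, one_mulVec] at h1
  have h2 : (fun i => ρ ((![0, 1, 0] : Fin 3 → F) i)) = ![0, 1, 0] := by
    funext i
    fin_cases i <;> simp
  rw [h2, act_emb1] at h1
  have h3 := congrFun h1 1
  rw [hg] at h3
  simpa using h3.symm

/-- eigenvector `e0`, partial form -/
theorem eig_of_e0 (hF : Fintype.card F = q ^ 2) (hq : 4 ≤ q) {A : GU 3 F q} {γ : F}
    (hA : gm A *ᵥ e0 F = γ • e0 F) (h : RC (f₁ A)) :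
    ∃ α : F, gm A *ᵥ ![0, 1, 0] = α • ![0, 1, 0] ∧ gm A *ᵥ ![0, 0, 1] = α • ![0, 0, 1] := by
  have hγ : γ ≠ 0 := by
    rintro rfl
    rw [zero_smul] at hA
    have h2 := gm_inv_mulVec A (e0 F)
    rw [hA, mulVec_zero] at h2
    exact e0_ne_zero h2.symm
  have key := semiConj_eq hF hq hA (ρ := 1) h
  have hc : ∀ (g : SU 2 F q) (x : Fin 3 → F), act (emb1 hF g) (gm A *ᵥ x) = gm A *ᵥ act (emb1 hF g) x := by
    intro g x
    have h1 := act_semiConj_one A (emb1 hF g) x
    rwa [key g] at h1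
  have hh : hermForm 3 F q (gm A *ᵥ ![0, 1, 0]) (e0 F) = 0 := by
    have h1 := herm_gm A ![0, 1, 0] (e0 F)
    rw [hA, herm_smul_right] at h1
    have h2 : hermForm 3 F q ![0, 1, 0] (e0 F) = 0 := by
      simp [herm_def, Fin.sum_univ_three, zero_pow_q hF]
    rw [h2] at h1
    exact (mul_eq_zero.1 h1).resolve_left (pow_ne_zero _ hγ)
  set w := gm A *ᵥ ![0, 1, 0] with hw
  have hw0 : w 0 = 0 := by
    simpa [herm_def, Fin.sum_univ_three, zero_pow_q hF] using hh
  obtain ⟨g1, hg1⟩ := exists_su2 hF (a := 0) (b := 1) (by simp)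
  have h1 := hc g1 ![0, 1, 0]
  rw [← hw, act_emb1, act_emb1, hg1] at h1
  obtain ⟨a, ha⟩ := exists_not_fixed hF
  obtain ⟨b, hb⟩ := exists_norm_eq hF (c := 1 - a * a ^ q) (by rw [sub_pow_q hF, one_pow, norm_pow_q hF])
  obtain ⟨g2, hg2⟩ := exists_su2 hF (a := a) (b := b) (by rw [hb]; ring)
  have h2 := hc g2 ![0, 1, 0]
  rw [← hw, act_emb1, act_emb1, hg2] at h2
  have e1 : gm A *ᵥ ![0, 0, 1] = ![0, -w 2, w 1] := by
    have : (![0, 0, 1] : Fin 3 → F) = ![0, 0, 1] := rfl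
    simp only [Matrix.cons_val_zero, Matrix.cons_val_one, Matrix.cons_val, Matrix.of_apply, Matrix.cons_val', hw0,
      zero_mul, one_mul, mul_zero, mul_one, add_zero, zero_add, one_pow, neg_mul, zero_pow_q hF] at h1
    rw [← h1]
  have e2 : (![0, a, b] : Fin 3 → F) = a • ![0, 1, 0] + b • ![0, 0, 1] := by
    funext i; fin_cases i <;> simp
  have h3 : w 2 = 0 := by
    simp only [Matrix.cons_val_zero, Matrix.cons_val_one, Matrix.cons_val, Matrix.of_apply, Matrix.cons_val', hw0,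
      zero_mul, one_mul, mul_zero, mul_one, add_zero, zero_add, one_pow, neg_mul] at h2
    rw [e2, mulVec_add, mulVec_smul, mulVec_smul, ← hw, e1] at h2
    have h4 := congrFun h2 2
    simp at h4
    have h5 : (a ^ q - a) * w 2 = 0 := by linear_combination h4
    exact (mul_eq_zero.1 h5).resolve_left (sub_ne_zero.2 ha)
  refine ⟨w 1, ?_, ?_⟩
  · funext i
    fin_cases i <;> simp [hw0, h3]
  · rw [e1, h3]
    funext i
    fin_cases i <;> simp

/-- the condition `RC` under conjugation -/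
theorem RC_f₁_conj {A : GU 3 F q} (h : RC (f₁ A)) (P : GU 3 F q) : RC (f₁ (P * A * P⁻¹)) := by
  have h1 := h.tr (f₁ P)
  have h2 : Cfsg.Agent.H459.Rad.tr (f₁ P) (f₁ A) = f₁ (P * A * P⁻¹) := by
    ext l
    rw [tr_apply, map_mul, map_mul, map_inv]
    rfl
  rwa [h2] at h1

/-- a matrix acting as a scalar on the basis -/
theorem eq_smul_one_of {M : Matrix (Fin 3) (Fin 3) F} {α : F} (h0 : M *ᵥ ![1, 0, 0] = α • ![1, 0, 0])
    (h1 : M *ᵥ ![0, 1, 0] = α • ![0, 1, 0]) (h2 : M *ᵥ ![0, 0, 1] = α • ![0, 0, 1]) :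
    M = α • (1 : Matrix (Fin 3) (Fin 3) F) := by
  ext i j
  have k0 := congrFun h0 i
  have k1 := congrFun h1 i
  have k2 := congrFun h2 i
  fin_cases j
  · simp [Matrix.mulVec, dotProduct, Fin.sum_univ_three] at k0
    fin_cases i <;> simpa using k0
  · simp [Matrix.mulVec, dotProduct, Fin.sum_univ_three] at k1
    fin_cases i <;> simpa using k1
  · simp [Matrix.mulVec, dotProduct, Fin.sum_univ_three] at k2
    fin_cases i <;> simpa using k2

theorem scalar_of_e0 (hF : Fintype.card F = q ^ 2) (hq : 4 ≤ q) {A : GU 3 F q} {γ : F}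
    (hA : gm A *ᵥ e0 F = γ • e0 F) (h : RC (f₁ A)) :
    ∃ α : F, gm A = α • (1 : Matrix (Fin 3) (Fin 3) F) := by
  obtain ⟨α, h1, h2⟩ := eig_of_e0 hF hq hA h
  -- conjugate with the cyclic permutation
  set P : GU 3 F q := ⟨Matrix.SpecialLinearGroup.toGL (cyc hF).1, fun u v => (mem_SU_iff (cyc hF).1).1 (cyc hF).2 u v⟩
    with hP
  have hPv : ∀ v, gm P *ᵥ v = act (cyc hF) v := fun v => rfl
  have hPinv : ∀ v w, gm P *ᵥ v = w → gm P⁻¹ *ᵥ w = v := by
    intro v w hvw
    rw [← hvw, gm_inv_mulVec]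
  have hconj : ∀ v w x y, gm P *ᵥ v = w → gm A *ᵥ v = x → gm P *ᵥ x = y → gm (P * A * P⁻¹) *ᵥ w = y := by
    intro v w x y h1 h2 h3
    rw [gm_mul, gm_mul, ← mulVec_mulVec, hPinv v w h1, ← mulVec_mulVec, h2, h3]
  have c0 : gm P *ᵥ ![1, 0, 0] = ![0, 1, 0] := by rw [hPv, act_cyc]; simp
  have c1 : gm P *ᵥ ![0, 1, 0] = ![0, 0, 1] := by rw [hPv, act_cyc]; simp
  have c2 : gm P *ᵥ ![0, 0, 1] = ![1, 0, 0] := by rw [hPv, act_cyc]; simp
  have d0 : gm (P * A * P⁻¹) *ᵥ ![1, 0, 0] = α • ![1, 0, 0] :=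
    hconj _ _ _ _ c2 h2 (by rw [mulVec_smul, c2])
  have d1 : gm (P * A * P⁻¹) *ᵥ ![0, 1, 0] = γ • ![0, 1, 0] :=
    hconj _ _ _ _ c0 hA (by rw [mulVec_smul, c0])
  have d2 : gm (P * A * P⁻¹) *ᵥ ![0, 0, 1] = α • ![0, 0, 1] :=
    hconj _ _ _ _ c1 h1 (by rw [mulVec_smul, c1])
  obtain ⟨β, h3, h4⟩ := eig_of_e0 hF hq d0 (RC_f₁_conj h P)
  rw [d1] at h3
  rw [d2] at h4
  have h5 : γ = β := by simpa using congrFun h3 1
  have h6 : α = β := by simpa using congrFun h4 2
  refine ⟨α, eq_smul_one_of ?_ h1 h2⟩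
  rw [h6, ← h5]
  exact hA

/-- **`RC` and a non-isotropic eigenvector: scalar.** -/
theorem scalar_of_fix (hF : Fintype.card F = q ^ 2) (hq : 4 ≤ q) {A : GU 3 F q} {v : Fin 3 → F} {γ : F}
    (hv : hermForm 3 F q v v ≠ 0) (hA : gm A *ᵥ v = γ • v) (h : RC (f₁ A)) :
    ∃ α : F, gm A = α • (1 : Matrix (Fin 3) (Fin 3) F) := by
  classical
  have hv0 : v ≠ 0 := by rintro rfl; exact hv (herm_zero_left 0)
  obtain ⟨P, hP, hPv⟩ := exists_GU_adapted hF (k := 1) (m := 2) (finSumFinEquiv) (Submodule.span F {v}) (by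
    intro u hu hu'
    obtain ⟨c, rfl⟩ := Submodule.mem_span_singleton.1 hu
    have h1 := hu' v (Submodule.mem_span_singleton_self v)
    rw [herm_smul_left] at h1
    rw [(mul_eq_zero.1 h1).resolve_right hv, zero_smul]) (finrank_span_singleton hv0)
  set Q : GU 3 F q := ⟨P, hP⟩ with hQ
  have h1 : gm Q *ᵥ e0 F ∈ Submodule.span F {v} := by
    refine (hPv (e0 F)).2 ?_
    intro j
    fin_cases j <;> simp [finSumFinEquiv]
  obtain ⟨c, hc⟩ := Submodule.mem_span_singleton.1 h1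
  have hc0 : c ≠ 0 := by
    rintro rfl
    rw [zero_smul] at hc
    have h2 := gm_inv_mulVec Q (e0 F)
    rw [← hc, mulVec_zero] at h2
    exact e0_ne_zero h2.symm
  have h2 : gm (Q⁻¹ * A * Q) *ᵥ e0 F = γ • e0 F := by
    rw [gm_mul, gm_mul, ← mulVec_mulVec, ← hc, ← mulVec_mulVec, mulVec_smul, hA, smul_comm, hc, mulVec_smul,
      gm_inv_mulVec]
  have h3 := RC_f₁_conj h Q⁻¹
  rw [inv_inv] at h3
  obtain ⟨α, hα⟩ := scalar_of_e0 hF hq h2 h3
  refine ⟨α, ?_⟩
  have h4 : A = Q * (Q⁻¹ * A * Q) * Q⁻¹ := by group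
  rw [h4, gm_mul, gm_mul, hα, Matrix.mul_smul, Matrix.smul_mul, Matrix.mul_one, gm_mul_inv]

end Cfsg.Agent.H844.AAU
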