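import Cfsg.Agent.H844.AAU.Pts
import Cfsg.Agent.H844.AAU.Rc
import Cfsg.Agent.CpAutU.Fixed
import Cfsg.Agent.H460.AADef

/-!
# Lifting the `AA` problem for `PSU_3(q)` to matrices, and the case `q` odd (helper844)

`key_pow` : if all products `A * A^g` (`g ∈ SU_3(q)`) are of `p`-power order modulo scalars and `A` is not a scalar then
`(b ^ (q+1)) ^ (3 p ^ k) = 1` for all `b ≠ 0`, some `k`.
-/

set_option autoImplicit false
set_option linter.unusedSectionVars false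

namespace Cfsg.Agent.H844.AAU

open Cfsg Matrix Cfsg.Agent.LieClassical.HermBasic Cfsg.Agent.LieClassical.HermSiegel
  Cfsg.Agent.LieClassical.HermGen
  Cfsg.Agent.ClassicalGeometry.PSUAutCount Cfsg.Agent.Schreier.PSU
  Cfsg.Agent.ClassicalGeometry.HermOrtho Cfsg.Agent.H459.Rad
open Cfsg.Agent.ClassicalGeometry.UnitAutBasic (pr pr_surjective exists_scalar_of_pr_eq)
open Cfsg.Agent.H460.AA (PE PA Core)

variable {F : Type*} [Field F] [Fintype F] {q : ℕ}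

/-- `A` is a scalar -/
def Sc (A : GU 3 F q) : Prop := ∃ c : F, gm A = c • (1 : Matrix (Fin 3) (Fin 3) F)

theorem sc_of_f₁ (hF : Fintype.card F = q ^ 2) {A : GU 3 F q} (h : f₁ A = 1) : Sc A := by
  have h1 : toAut (1 : GU 3 F q) 1 = toAut A 1 := by
    rw [Cfsg.Agent.CpAutU.Desc.toAut_one]; exact h.symm
  obtain ⟨-, c, -, hA⟩ := eq_of_toAut_eq hF le_rfl h1
  exact ⟨c, by rw [hA, gm_one]⟩

omit [Fintype F] in
theorem scalar_ne_zero {A : GU 3 F q} {c : F} (h : gm A = c • (1 : Matrix (Fin 3) (Fin 3) F)) : c ≠ 0 := by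
  rintro rfl
  have h1 := gm_mul_inv A
  rw [h, zero_smul, Matrix.zero_mul] at h1
  have h2 := congrFun (congrFun h1 0) 0
  simp at h2

omit [Fintype F] in
theorem f₁_of_sc {A : GU 3 F q} (h : Sc A) : f₁ A = 1 := by
  obtain ⟨c, hc⟩ := h
  have hc0 := scalar_ne_zero hc
  ext x
  obtain ⟨g, rfl⟩ := pr_surjective x
  show toAut A 1 (pr 3 F q g) = _
  rw [toAut_pr, MulAut.one_apply]
  congr 1
  apply ext_act
  intro x
  have h1 := act_semiConj_one A g x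
  rw [hc, smul_mulVec, smul_mulVec, one_mulVec, one_mulVec, act_smul] at h1
  exact smul_right_injective _ hc0 h1

omit [Fintype F] in
theorem pm_of_sc {A : GU 3 F q} (h : Sc A) : pm A = 1 := by
  obtain ⟨c, hc⟩ := h
  apply Equiv.ext
  intro P
  obtain ⟨u, h0, hu, rfl⟩ := exists_mk P
  rw [Equiv.Perm.one_apply, pm_fix_iff]
  exact ⟨c, by rw [hc, smul_mulVec, one_mulVec]⟩

/-- a non-scalar moves some isotropic point -/
theorem exists_moved (hF : Fintype.card F = q ^ 2) {A : GU 3 F q} (h : ¬ Sc A) :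
    ∃ w : Fin 3 → F, w ≠ 0 ∧ hermForm 3 F q w w = 0 ∧ ∀ c : F, gm A *ᵥ w ≠ c • w := by
  by_contra hcon
  push Not at hcon
  apply h
  have h0 : gm A ≠ 0 := by
    intro h0
    have h1 := gm_mul_inv A
    rw [h0, Matrix.zero_mul] at h1
    have h2 := congrFun (congrFun h1 0) 0
    simp at h2
  obtain ⟨-, b, -, hb⟩ := scalar_of_isotropic hF le_rfl (B := gm A) (ψ := RingEquiv.refl F) h0 (by
    intro u hu hu0
    exact hcon u hu0 hu)
  exact ⟨b, hb⟩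

/-- the product `A * A^g` -/
def Y (A : GU 3 F q) (g : SU 3 F q) : GU 3 F q := A * (inc g * A * (inc g)⁻¹)

/-- the hypothesis on the products in matrix form -/
def PM (p : ℕ) (A : GU 3 F q) : Prop := ∀ g : SU 3 F q, ∃ k : ℕ, Sc (Y A g ^ p ^ k)

theorem pm_of_pa (hF : Fintype.card F = q ^ 2) {p : ℕ} [Fact p.Prime] {A : GU 3 F q} (h : PA p (f₁ A)) : PM p A := by
  intro g
  have h1 := h (pr 3 F q g)
  rw [← f₁_inc, ← map_inv, ← map_mul, ← map_mul, ← map_mul] at h1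
  obtain ⟨k, hk⟩ := PE.pow_eq_one_iff.1 h1
  refine ⟨k, sc_of_f₁ hF ?_⟩
  rw [map_pow]
  exact hk

omit [Fintype F] in
theorem det_inc (g : SU 3 F q) : (gm (inc g)).det = 1 := by
  rw [gm_inc]; exact det_mat g

omit [Fintype F] in
theorem gm_pow (A : GU 3 F q) (n : ℕ) : gm (A ^ n) = gm A ^ n := by
  induction n with
  | zero => rw [pow_zero, pow_zero, gm_one]
  | succ n ih => rw [pow_succ, pow_succ, gm_mul, ih]

omit [Fintype F] in
theorem det_Y (A : GU 3 F q) (g : SU 3 F q) : (gm (Y A g)).det = (gm A).det ^ 2 := by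
  have h1 : (gm (inc g)⁻¹).det = 1 := by
    have h2 := congrArg Matrix.det (gm_mul_inv (inc g))
    rwa [det_mul, det_inc, one_mul, det_one] at h2
  rw [Y, gm_mul, gm_mul, gm_mul, det_mul, det_mul, det_mul, det_inc, h1]
  ring

omit [Fintype F] in
theorem pow_mulVec {A : GU 3 F q} {u : Fin 3 → F} {α : F} (h : gm A *ᵥ u = α • u) (n : ℕ) :
    gm (A ^ n) *ᵥ u = α ^ n • u := by
  induction n with
  | zero => rw [pow_zero, pow_zero, gm_one, one_mulVec, one_smul]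
  | succ n ih => rw [pow_succ, gm_mul, ← mulVec_mulVec, h, mulVec_smul, ih, smul_smul, pow_succ, mul_comm]

omit [Fintype F] in
/-- eigenvalue and determinant if a power is a scalar -/
theorem eig_det {B : GU 3 F q} {n : ℕ} (h : Sc (B ^ n)) {u : Fin 3 → F} (hu : u ≠ 0) {α : F}
    (hB : gm B *ᵥ u = α • u) : (gm B).det ^ n = α ^ (3 * n) := by
  obtain ⟨c, hc⟩ := h
  have h1 := pow_mulVec hB n
  rw [hc, smul_mulVec, one_mulVec] at h1
  have h2 : c = α ^ n := smul_left_injective F hu h1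
  have h3 : (gm (B ^ n)).det = c ^ 3 := by
    rw [hc, det_smul, det_one, mul_one, Fintype.card_fin]
  rw [gm_pow, det_pow, h2] at h3
  rw [h3, ← pow_mul, mul_comm]

/-- **Products with prescribed eigenvalue.** -/
theorem exists_prod (hF : Fintype.card F = q ^ 2) {A : GU 3 F q} {w : Fin 3 → F} (hw0 : w ≠ 0)
    (hw : hermForm 3 F q w w = 0) (hA : ∀ c : F, gm A *ᵥ w ≠ c • w) :
    hermForm 3 F q w (gm A *ᵥ w) ≠ 0 ∧ ∀ b : F, b ≠ 0 → ∃ g : SU 3 F q,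
      gm (Y A g) *ᵥ (gm A *ᵥ w) = (hermForm 3 F q w (gm A *ᵥ w) ^ q * (hermForm 3 F q w (gm A *ᵥ w))⁻¹ *
        (b ^ (q + 1))⁻¹) • (gm A *ᵥ w) ∧ act g⁻¹ w = b • (gm A *ᵥ w) := by
  set w' := gm A *ᵥ w with hw'
  have hw'0 : w' ≠ 0 := gm_ne_zero A hw0
  have hw'i : hermForm 3 F q w' w' = 0 := by rw [hw', herm_gm, hw]
  set s := hermForm 3 F q w w' with hs
  have hs0 : s ≠ 0 := by
    intro h0
    obtain ⟨c, hc⟩ := smul_of_orth hF hw0 hw hw'i h0
    exact hA c hc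
  have hss : s ^ q * (s ^ q) ^ q = s ^ q * s := by rw [pow_q_pow_q hF]
  have hq1 := q_pos hF
  refine ⟨hs0, ?_⟩
  intro b hb
  have hbq : b ^ q ≠ 0 := pow_ne_zero _ hb
  have hsq : s ^ q ≠ 0 := pow_ne_zero _ hs0
  set a := s ^ q * s⁻¹ * (b ^ q)⁻¹ with ha
  -- `k w = b w'`, `k w' = a w`
  obtain ⟨k, -, hk1, hk2⟩ := exists_map_hyp (q := q) hF (n := 3) (k := 3) le_rfl le_rfl
    (u := s⁻¹ • w) (u' := w') (v := (s⁻¹ * b) • w') (v' := a • w)
    (mem_coordSub_top _) (mem_coordSub_top _) (mem_coordSub_top _) (mem_coordSub_top _)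
    (by rw [herm_smul_left, herm_smul_right, hw]; ring) hw'i
    (by rw [herm_smul_left, ← hs, inv_mul_cancel₀ hs0])
    (by rw [herm_smul_left, herm_smul_right, hw'i]; ring)
    (by rw [herm_smul_left, herm_smul_right, hw]; ring)
    (by
      rw [herm_smul_left, herm_smul_right, herm_swap hF, ← hs, ha, mul_pow, mul_pow, inv_pow, inv_pow,
        pow_q_pow_q hF, pow_q_pow_q hF]
      field_simp)
  have hkw : act k w = b • w' := by
    rw [act_smul] at hk1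
    have h1 := congrArg (fun x => s • x) hk1
    simp only [smul_smul] at h1
    rw [mul_inv_cancel₀ hs0, one_smul, ← mul_assoc, mul_inv_cancel₀ hs0, one_mul] at h1
    exact h1
  refine ⟨k⁻¹, ?_, by rw [inv_inv, hkw]⟩
  have e1 : gm (inc k⁻¹)⁻¹ *ᵥ w' = a • w := by
    rw [map_inv, inv_inv, inc_mulVec, hk2]
  have e2 : gm (inc k⁻¹) *ᵥ w' = b⁻¹ • w := by
    have h1 : act k (b⁻¹ • w) = w' := by
      rw [act_smul, hkw, smul_smul, inv_mul_cancel₀ hb, one_smul]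
    rw [inc_mulVec, ← h1, act_inv_act]
  rw [Y, gm_mul, gm_mul, gm_mul, ← mulVec_mulVec, ← mulVec_mulVec, ← mulVec_mulVec, e1, mulVec_smul, ← hw',
    mulVec_smul, e2, mulVec_smul, mulVec_smul, ← hw', smul_smul]
  congr 1
  rw [ha, pow_succ, mul_inv]
  ring

/-- **Key.** -/
theorem key_pow (hF : Fintype.card F = q ^ 2) {p : ℕ} {A : GU 3 F q} (hA : ¬ Sc A) (hP : PM p A) {b : F} (hb : b ≠ 0) :
    ∃ k : ℕ, (b ^ (q + 1)) ^ (3 * p ^ k) = 1 := by
  obtain ⟨w, hw0, hw, hmv⟩ := exists_moved hF hA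
  obtain ⟨hs0, hc⟩ := exists_prod hF hw0 hw hmv
  have hc0 : hermForm 3 F q w (gm A *ᵥ w) ^ q * (hermForm 3 F q w (gm A *ᵥ w))⁻¹ ≠ 0 :=
    mul_ne_zero (pow_ne_zero _ hs0) (inv_ne_zero hs0)
  generalize hermForm 3 F q w (gm A *ᵥ w) ^ q * (hermForm 3 F q w (gm A *ᵥ w))⁻¹ = c at hc hc0
  have hw'0 : gm A *ᵥ w ≠ 0 := gm_ne_zero A hw0
  have key : ∀ b : F, b ≠ 0 → ∃ k : ℕ, ((gm A).det ^ 2) ^ p ^ k = (c * (b ^ (q + 1))⁻¹) ^ (3 * p ^ k) := by
    intro b hb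
    obtain ⟨g, hg, -⟩ := hc b hb
    obtain ⟨k, hk⟩ := hP g
    refine ⟨k, ?_⟩
    rw [← eig_det hk hw'0 hg, det_Y]
  obtain ⟨k1, h1⟩ := key 1 one_ne_zero
  obtain ⟨k2, h2⟩ := key b hb
  refine ⟨k1 + k2, ?_⟩
  rw [one_pow, inv_one, mul_one] at h1
  have h3 : ((gm A).det ^ 2) ^ p ^ (k1 + k2) = c ^ (3 * p ^ (k1 + k2)) := by
    rw [pow_add p, pow_mul, h1, ← pow_mul, mul_assoc]
  have h4 : ((gm A).det ^ 2) ^ p ^ (k1 + k2) = (c * (b ^ (q + 1))⁻¹) ^ (3 * p ^ (k1 + k2)) := by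
    rw [add_comm k1, pow_add p, pow_mul, h2, ← pow_mul, mul_assoc]
  rw [h3, mul_pow, inv_pow] at h4
  have hbn : (b ^ (q + 1)) ^ (3 * p ^ (k1 + k2)) ≠ 0 := pow_ne_zero _ (pow_ne_zero _ hb)
  have hcn : c ^ (3 * p ^ (k1 + k2)) ≠ 0 := pow_ne_zero _ hc0
  have h5 := mul_left_cancel₀ hcn ((mul_one _).trans h4)
  exact inv_eq_one.1 h5.symm

/-- **`q` is even.** -/
theorem not_odd (hF : Fintype.card F = q ^ 2) {p : ℕ} (hp2 : Odd p) {A : GU 3 F q} (hA : ¬ Sc A) (hP : PM p A) :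
    (2 : F) = 0 := by
  obtain ⟨b, hb⟩ := exists_norm_eq hF (c := (-1 : F)) (by rw [neg_pow_q hF, one_pow])
  have hb0 : b ≠ 0 := by
    rintro rfl
    rw [zero_mul] at hb
    exact one_ne_zero (neg_eq_zero.1 hb.symm)
  obtain ⟨k, hk⟩ := key_pow hF hA hP hb0
  have h1 : b ^ (q + 1) = -1 := by rw [pow_succ', hb]
  rw [h1, Odd.neg_one_pow (by exact Odd.mul (by decide) (hp2.pow))] at hk
  linear_combination -hk

/-- `x` is linear -/
theorem exists_linear (hF : Fintype.card F = q ^ 2) (hq : 3 ≤ q) {p : ℕ} (hp : p.Prime) (hp2 : p ≠ 2)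
    {x : MulAut (PSU 3 F q)} (hx : x ^ p = 1) (hR : RC x) : ∃ A : GU 3 F q, x = f₁ A := by
  obtain ⟨A, ρ, rfl⟩ := ClassicalGeometry.PSUAutMain.exists_toAut hF le_rfl (by omega) x
  by_cases hρ : ρ = 1
  · subst hρ; exact ⟨A, rfl⟩
  · exfalso
    obtain ⟨hord, M, hM⟩ := Cfsg.Agent.CpAutU.Desc.exists_conj hF le_rfl hp hp2 hx hρ
    obtain ⟨s, hs2, -, hqs⟩ := Cfsg.Agent.CpAutU.Fld.exists_s' hF hord (hp.odd_of_ne_two hp2)
    have hq4 : 4 ≤ q := by
      have h1 : 2 ≤ p := hp.two_le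
      calc 4 = 2 ^ 2 := by norm_num
        _ ≤ s ^ 2 := Nat.pow_le_pow_left hs2 2
        _ ≤ s ^ p := Nat.pow_le_pow_right (by omega) h1
        _ = q := hqs.symm
    apply hρ
    have h1 := hR.tr (toAut M 1)⁻¹
    have h2 : Cfsg.Agent.H459.Rad.tr (toAut M 1)⁻¹ (toAut A ρ) = toAut 1 ρ := by
      rw [hM]
      generalize toAut M 1 = m
      generalize toAut (1 : GU 3 F q) ρ = r
      have e : m⁻¹ * (m * r * m⁻¹) * m⁻¹⁻¹ = r := by group
      calc Cfsg.Agent.H459.Rad.tr m⁻¹ (m * r * m⁻¹) = m⁻¹ * (m * r * m⁻¹) * m⁻¹⁻¹ := rfl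
        _ = r := e
    rw [h2] at h1
    exact field_eq_one hF hq4 h1

end Cfsg.Agent.H844.AAU
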