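import Cfsg.Agent.H844.AAU.Lift

/-!
# The `AA` problem for `PSU_3(q)` (helper844, for S3833, S3834, S3840)

`core_psu3` : `Core (PSU 3 F q)` for `q ≥ 3`.
-/

set_option autoImplicit false
set_option linter.unusedSectionVars false

namespace Cfsg.Agent.H844.AAU

open Cfsg Matrix Cfsg.Agent.LieClassical.HermBasic Cfsg.Agent.LieClassical.HermSiegel
  Cfsg.Agent.LieClassical.HermGen
  Cfsg.Agent.ClassicalGeometry.PSUAutCount Cfsg.Agent.Schreier.PSU
  Cfsg.Agent.ClassicalGeometry.HermOrtho Cfsg.Agent.H459.Rad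
open Cfsg.Agent.ClassicalGeometry.UnitAutBasic (pr pr_surjective exists_scalar_of_pr_eq exists_ne_zero_orth)
open Cfsg.Agent.H460.AA (PE PA Core)

variable {F : Type*} [Field F] [Fintype F] {q : ℕ}

/-- the orthogonal complement of a hyperbolic plane -/
theorem perp_line (hF : Fintype.card F = q ^ 2) {u w : Fin 3 → F} (hu : hermForm 3 F q u u = 0)
    (hw : hermForm 3 F q w w = 0) (huw : hermForm 3 F q u w ≠ 0) :
    ∃ v : Fin 3 → F, hermForm 3 F q v v ≠ 0 ∧ hermForm 3 F q v u = 0 ∧ hermForm 3 F q v w = 0 ∧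
      ∀ x : Fin 3 → F, ∃ a b c : F, x = a • u + b • w + c • v := by
  have hu0 : u ≠ 0 := by rintro rfl; exact huw (herm_zero_left _)
  have hwu : hermForm 3 F q w u ≠ 0 := fun h => huw (herm_eq_zero_swap hF h)
  obtain ⟨v, hv0, hvu, hvw⟩ := exists_ne_zero_orth (F := F) (q := q) (n := 3) le_rfl u w
  have hvv : hermForm 3 F q v v ≠ 0 := by
    intro h0
    obtain ⟨c, rfl⟩ := smul_of_orth hF hu0 hu h0 (herm_eq_zero_swap hF hvu)
    rw [herm_smul_left] at hvw
    rcases mul_eq_zero.1 hvw with h1 | h1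
    · exact hv0 (by rw [h1, zero_smul])
    · exact huw h1
  have huv := herm_eq_zero_swap hF hvu
  have hwv := herm_eq_zero_swap hF hvw
  refine ⟨v, hvv, hvu, hvw, ?_⟩
  have hli : LinearIndependent F ![u, w, v] := by
    rw [Fintype.linearIndependent_iff]
    intro g hg
    rw [Fin.sum_univ_three] at hg
    simp only [Matrix.cons_val_zero, Matrix.cons_val_one, Matrix.cons_val] at hg
    have k1 : hermForm 3 F q (g 0 • u + g 1 • w + g 2 • v) w = 0 := by rw [hg, herm_zero_left]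
    have k2 : hermForm 3 F q (g 0 • u + g 1 • w + g 2 • v) u = 0 := by rw [hg, herm_zero_left]
    have k3 : hermForm 3 F q (g 0 • u + g 1 • w + g 2 • v) v = 0 := by rw [hg, herm_zero_left]
    rw [herm_add_left, herm_add_left, herm_smul_left, herm_smul_left, herm_smul_left, hw, hvw] at k1
    rw [herm_add_left, herm_add_left, herm_smul_left, herm_smul_left, herm_smul_left, hu, hvu] at k2
    rw [herm_add_left, herm_add_left, herm_smul_left, herm_smul_left, herm_smul_left, huv, hwv] at k3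
    have g0 : g 0 = 0 := by
      have : g 0 * hermForm 3 F q u w = 0 := by linear_combination k1
      exact (mul_eq_zero.1 this).resolve_right huw
    have g1 : g 1 = 0 := by
      have : g 1 * hermForm 3 F q w u = 0 := by linear_combination k2
      exact (mul_eq_zero.1 this).resolve_right hwu
    have g2 : g 2 = 0 := by
      have : g 2 * hermForm 3 F q v v = 0 := by linear_combination k3
      exact (mul_eq_zero.1 this).resolve_right hvv
    intro i
    fin_cases i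
    · exact g0
    · exact g1
    · exact g2
  have hsp := hli.span_eq_top_of_card_eq_finrank' (by simp)
  intro x
  have hx : x ∈ Submodule.span F (Set.range ![u, w, v]) := by rw [hsp]; exact Submodule.mem_top
  obtain ⟨g, hg⟩ := (Submodule.mem_span_range_iff_exists_fun F).1 hx
  rw [Fin.sum_univ_three] at hg
  exact ⟨g 0, g 1, g 2, hg.symm⟩

/-- two isotropic eigenvectors: the third one -/
theorem third (hF : Fintype.card F = q ^ 2) {A : GU 3 F q} {u w : Fin 3 → F} (hu : hermForm 3 F q u u = 0)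
    (hw : hermForm 3 F q w w = 0) (huw : hermForm 3 F q u w ≠ 0) {α β : F} (hAu : gm A *ᵥ u = α • u)
    (hAw : gm A *ᵥ w = β • w) : ∃ (v : Fin 3 → F) (γ : F), hermForm 3 F q v v ≠ 0 ∧ gm A *ᵥ v = γ • v ∧
      ∀ x : Fin 3 → F, ∃ a b c : F, x = a • u + b • w + c • v := by
  obtain ⟨v, hvv, hvu, hvw, hsp⟩ := perp_line hF hu hw huw
  have hu0 : u ≠ 0 := by rintro rfl; exact huw (herm_zero_left _)
  have hw0 : w ≠ 0 := by rintro rfl; exact huw (herm_zero_right hF _)
  have hwu : hermForm 3 F q w u ≠ 0 := fun h => huw (herm_eq_zero_swap hF h)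
  have hα : α ≠ 0 := by
    rintro rfl
    rw [zero_smul] at hAu
    exact gm_ne_zero A hu0 hAu
  have hβ : β ≠ 0 := by
    rintro rfl
    rw [zero_smul] at hAw
    exact gm_ne_zero A hw0 hAw
  obtain ⟨a, b, c, h⟩ := hsp (gm A *ᵥ v)
  have k1 : hermForm 3 F q (gm A *ᵥ v) u = 0 := by
    have h1 := herm_gm A v u
    rw [hAu, herm_smul_right, hvu] at h1
    exact (mul_eq_zero.1 h1).resolve_left (pow_ne_zero _ hα)
  have k2 : hermForm 3 F q (gm A *ᵥ v) w = 0 := by
    have h1 := herm_gm A v w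
    rw [hAw, herm_smul_right, hvw] at h1
    exact (mul_eq_zero.1 h1).resolve_left (pow_ne_zero _ hβ)
  rw [h, herm_add_left, herm_add_left, herm_smul_left, herm_smul_left, herm_smul_left, hu, hvu] at k1
  rw [h, herm_add_left, herm_add_left, herm_smul_left, herm_smul_left, herm_smul_left, hw, hvw] at k2
  have hb : b = 0 := by
    have : b * hermForm 3 F q w u = 0 := by linear_combination k1
    exact (mul_eq_zero.1 this).resolve_right hwu
  have ha : a = 0 := by
    have : a * hermForm 3 F q u w = 0 := by linear_combination k2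
    exact (mul_eq_zero.1 this).resolve_right huw
  rw [ha, hb, zero_smul, zero_smul, zero_add, zero_add] at h
  exact ⟨v, c, hvv, h, hsp⟩

/-- the extra information on the products -/
theorem sq_of_sc (hF : Fintype.card F = q ^ 2) {A : GU 3 F q} {w : Fin 3 → F} {b : F} {g : SU 3 F q}
    (hg : act g⁻¹ w = b • (gm A *ᵥ w)) {ν : F} (hν : gm (Y A g) = ν • (1 : Matrix (Fin 3) (Fin 3) F)) :
    ν * hermForm 3 F q w (gm A *ᵥ w) = b * b ^ q * hermForm 3 F q w (gm A *ᵥ w) ^ q := by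
  set G : GU 3 F q := inc g with hG
  have hY' : gm ((A * G)⁻¹ * Y A g * (A * G)) = ν • (1 : Matrix (Fin 3) (Fin 3) F) := by
    rw [gm_mul, gm_mul, hν, Matrix.mul_smul, Matrix.smul_mul, Matrix.mul_one, gm_inv_mul]
  have e : A * G⁻¹ = ((A * G)⁻¹ * Y A g * (A * G)) * (G⁻¹ * A⁻¹) := by
    unfold Y; rw [← hG]; group
  have hGw : gm G⁻¹ *ᵥ w = b • (gm A *ᵥ w) := by
    rw [hG, ← map_inv, inc_mulVec, hg]
  have h1 : gm A *ᵥ (gm G⁻¹ *ᵥ w) = ν • (gm G⁻¹ *ᵥ (gm A⁻¹ *ᵥ w)) := by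
    have h2 : gm (A * G⁻¹) *ᵥ w = gm (((A * G)⁻¹ * Y A g * (A * G)) * (G⁻¹ * A⁻¹)) *ᵥ w :=
      congrArg (fun x => gm x *ᵥ w) e
    rw [gm_mul, gm_mul ((A * G)⁻¹ * Y A g * (A * G)), hY', Matrix.smul_mul, Matrix.one_mul, smul_mulVec, gm_mul,
      ← mulVec_mulVec, ← mulVec_mulVec] at h2
    exact h2
  have h3 : hermForm 3 F q (gm A *ᵥ (gm G⁻¹ *ᵥ w)) (gm G⁻¹ *ᵥ w) = ν * hermForm 3 F q w (gm A *ᵥ w) := by
    rw [h1, herm_smul_left, herm_gm, ← herm_gm A (gm A⁻¹ *ᵥ w) w, gm_mulVec_inv]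
  rw [← h3, hGw, mulVec_smul, herm_smul_left, herm_smul_right, herm_gm, ← herm_swap hF w (gm A *ᵥ w)]
  ring

/-- if the product is a scalar -/
theorem pow_of_sc (hF : Fintype.card F = q ^ 2) {A : GU 3 F q} {w : Fin 3 → F} (hw0 : w ≠ 0)
    (hs0 : hermForm 3 F q w (gm A *ᵥ w) ≠ 0) {b : F} (hb : b ≠ 0) {g : SU 3 F q}
    (hg1 : gm (Y A g) *ᵥ (gm A *ᵥ w) = (hermForm 3 F q w (gm A *ᵥ w) ^ q * (hermForm 3 F q w (gm A *ᵥ w))⁻¹ *
        (b ^ (q + 1))⁻¹) • (gm A *ᵥ w))
    (hg : act g⁻¹ w = b • (gm A *ᵥ w)) (hsc : Sc (Y A g)) : (b ^ (q + 1)) ^ 2 = 1 := by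
  obtain ⟨ν, hν⟩ := hsc
  have h1 := sq_of_sc hF hg hν
  rw [hν, smul_mulVec, one_mulVec] at hg1
  have h2 : ν = _ := smul_left_injective F (gm_ne_zero A hw0) hg1
  set s := hermForm 3 F q w (gm A *ᵥ w) with hs
  have hsq : s ^ q ≠ 0 := pow_ne_zero _ hs0
  have hbn : b ^ (q + 1) ≠ 0 := pow_ne_zero _ hb
  rw [h2, ← pow_succ'] at h1
  have h3 : s ^ q * s⁻¹ * (b ^ (q + 1))⁻¹ * s = s ^ q * (b ^ (q + 1))⁻¹ := by
    field_simp
  rw [h3] at h1
  have h4 : (b ^ (q + 1))⁻¹ = b ^ (q + 1) := by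
    apply mul_left_cancel₀ hsq
    rw [h1]; ring
  rw [pow_two]
  nth_rewrite 1 [← h4]
  exact inv_mul_cancel₀ hbn

/-- eigenvectors of matrices of order five over a field with fifth roots of unity -/
theorem exists_eig {M : Matrix (Fin 3) (Fin 3) F} {n : ℕ} (hn : 0 < n) (hM : M ^ n = 1) {ζ : F}
    (hζ : IsPrimitiveRoot ζ n) : ∃ (c : F) (v : Fin 3 → F), v ≠ 0 ∧ M *ᵥ v = c • v := by
  have h1 := Polynomial.X_pow_sub_one_eq_prod hn hζ
  let φ : Polynomial F →* F := Matrix.detMonoidHom.comp (Polynomial.aeval M : Polynomial F →ₐ[F] _).toRingHom.toMonoidHom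
  have hφ : ∀ f : Polynomial F, φ f = (Polynomial.aeval M f).det := fun f => rfl
  have h2 : φ (Polynomial.X ^ n - 1) = 0 := by
    rw [hφ, map_sub, map_pow, Polynomial.aeval_X, map_one, hM, sub_self, Matrix.det_zero]
  rw [h1, map_prod, Finset.prod_eq_zero_iff] at h2
  obtain ⟨c, -, hc⟩ := h2
  rw [hφ, map_sub, Polynomial.aeval_X, Polynomial.aeval_C] at hc
  obtain ⟨v, hv0, hv⟩ := Matrix.exists_mulVec_eq_zero_iff.2 hc
  refine ⟨c, v, hv0, ?_⟩
  rw [sub_mulVec, sub_eq_zero] at hv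
  rw [hv, Algebra.algebraMap_eq_smul_one, smul_mulVec, one_mulVec]

/-- **The even case.** -/
theorem even_case (hF : Fintype.card F = q ^ 2) (hq : 4 ≤ q) (h2 : (2 : F) = 0) {p : ℕ} [hp : Fact p.Prime]
    (hp2 : p ≠ 2) {A : GU 3 F q} (hA : ¬ Sc A) (hAp : Sc (A ^ p)) (hR : RC (f₁ A)) (hP : PM p A) : False := by
  classical
  -- no non-isotropic eigenvectors
  have hno : ∀ (v : Fin 3 → F) (γ : F), hermForm 3 F q v v ≠ 0 → gm A *ᵥ v ≠ γ • v := by
    intro v γ hv h
    obtain ⟨α, hα⟩ := scalar_of_fix hF hq hv h hR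
    exact hA ⟨α, hα⟩
  -- `p ∤ q`
  have hpq : ¬ p ∣ q := by
    obtain ⟨r, k, hr, hchar, hqr, hk⟩ := exists_prime_pow hF
    intro h
    rw [hqr] at h
    have h3 : p = r := (Nat.prime_dvd_prime_iff_eq hp.out hr).1 (hp.out.dvd_of_dvd_pow h)
    have h4 : ((2 : ℕ) : F) = 0 := by exact_mod_cast h2
    have h5 : r ∣ 2 := (CharP.cast_eq_zero_iff F r 2).1 h4
    have h6 : r = 2 := (Nat.prime_dvd_prime_iff_eq hr Nat.prime_two).1 h5
    exact hp2 (h3.trans h6)
  -- two fixed points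
  have htwo : ∀ P Q : Pt F q, P ≠ Q → pm A P = P → pm A Q = Q → False := by
    intro P Q hPQ h3 h4
    obtain ⟨u, hu0, hu, rfl⟩ := exists_mk P
    obtain ⟨w, hw0, hw, rfl⟩ := exists_mk Q
    have huw := herm_ne_zero_of_ne hF hPQ
    obtain ⟨α, hα⟩ := (pm_fix_iff A u hu0 hu).1 h3
    obtain ⟨β, hβ⟩ := (pm_fix_iff A w hw0 hw).1 h4
    obtain ⟨v, γ, hv, hvγ, -⟩ := third hF hu hw huw hα hβ
    exact hno v γ hv hvγ
  have hmod : q ^ 3 + 1 ≡ fx (pm A) [MOD p] := by
    refine fx_modEq hF (k := 1) ?_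
    rw [pow_one, ← map_pow]
    exact pm_of_sc hAp
  have hle : fx (pm A) ≤ 1 := by
    by_contra hcon
    push Not at hcon
    unfold fx at hcon
    obtain ⟨P, hP1, Q, hQ1, hPQ⟩ := Finset.one_lt_card.1 hcon
    exact htwo P Q hPQ (Finset.mem_filter.1 hP1).2 (Finset.mem_filter.1 hQ1).2
  have hfx : fx (pm A) = 0 := by
    by_contra h0
    have h1 : fx (pm A) = 1 := by omega
    rw [h1] at hmod
    have h3 : p ∣ q ^ 3 := by
      have h4 := (Nat.modEq_iff_dvd' (by omega)).1 hmod.symm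
      simpa using h4
    exact hpq (hp.out.dvd_of_dvd_pow h3)
  rw [hfx] at hmod
  have hpd : p ∣ q ^ 3 + 1 := (Nat.modEq_zero_iff_dvd).1 hmod
  have hfix : ∀ P : Pt F q, pm A P ≠ P := by
    intro P h
    unfold fx at hfx
    rw [Finset.card_eq_zero] at hfx
    have : P ∈ (Finset.univ.filter fun w => pm A w = w) := Finset.mem_filter.2 ⟨Finset.mem_univ _, h⟩
    rw [hfx] at this
    exact absurd this (Finset.notMem_empty _)
  -- no eigenvectors
  have hne : ∀ (v : Fin 3 → F) (γ : F), v ≠ 0 → gm A *ᵥ v ≠ γ • v := by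
    intro v γ hv h
    by_cases h3 : hermForm 3 F q v v = 0
    · exact hfix (mk v hv h3) ((pm_fix_iff A v hv h3).2 ⟨γ, h⟩)
    · exact hno v γ h3 h
  -- a generator
  obtain ⟨ζ, hζ⟩ := IsCyclic.exists_generator (α := Fˣ)
  have hord : orderOf ζ = (q + 1) * (q - 1) := by
    rw [orderOf_eq_card_of_forall_mem_zpowers hζ, card_units_eq hF]
  obtain ⟨k, hk⟩ := key_pow hF hA hP (b := (ζ : F)) ζ.ne_zero
  have h3 : q - 1 ∣ 3 * p ^ k := by
    have h4 : ζ ^ ((q + 1) * (3 * p ^ k)) = 1 := by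
      apply Units.ext
      rw [Units.val_pow_eq_pow_val, pow_mul, hk, Units.val_one]
    have h5 := orderOf_dvd_of_pow_eq_one h4
    rw [hord] at h5
    exact Nat.dvd_of_mul_dvd_mul_left (by omega) h5
  have h4 : ¬ p ∣ q - 1 := by
    intro h4
    have h5 : p ∣ q ^ 3 - 1 := by
      refine dvd_trans h4 ?_
      have := Nat.sub_dvd_pow_sub_pow q 1 3
      simpa using this
    have h6 : p ∣ 2 := by
      have h7 := (Nat.dvd_add_right h5).1 (show p ∣ (q ^ 3 - 1) + 2 by
        have : 1 ≤ q ^ 3 := Nat.one_le_pow _ _ (by omega)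
        have e : q ^ 3 - 1 + 2 = q ^ 3 + 1 := by omega
        rwa [e])
      exact h7
    exact hp2 ((Nat.prime_dvd_prime_iff_eq hp.out Nat.prime_two).1 h6)
  have h5 : q - 1 ∣ 3 := by
    refine Nat.Coprime.dvd_of_dvd_mul_right ?_ h3
    exact (Nat.Coprime.pow_right k ((Nat.Prime.coprime_iff_not_dvd hp.out).2 h4).symm)
  have hq4 : q = 4 := by
    have := Nat.le_of_dvd (by norm_num) h5
    omega
  subst hq4
  have h65 : p = 5 ∨ p = 13 := by
    have h6 : p ∣ 5 * 13 := by simpa using hpd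
    rcases (Nat.Prime.dvd_mul hp.out).1 h6 with h7 | h7
    · exact Or.inl ((Nat.prime_dvd_prime_iff_eq hp.out (by norm_num)).1 h7)
    · exact Or.inr ((Nat.prime_dvd_prime_iff_eq hp.out (by norm_num)).1 h7)
  have hord15 : orderOf ζ = 15 := by rw [hord]
  have hpow15 : ∀ x : F, x ≠ 0 → x ^ 15 = 1 := by
    intro x hx
    have h6 := FiniteField.pow_card_sub_one_eq_one x hx
    rw [hF] at h6
    exact h6
  rcases h65 with rfl | rfl
  · -- `p = 5`
    obtain ⟨μ, hμ⟩ := hAp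
    have hμ0 := scalar_ne_zero hμ
    have hnorm : μ ^ 5 = 1 := by
      have h6 := herm_gm (A ^ 5) (e0 F) (e0 F)
      rw [hμ, smul_mulVec, one_mulVec, herm_smul_left, herm_smul_right] at h6
      have h7 : hermForm 3 F 4 (e0 F) (e0 F) = 1 := by
        simp [herm_def, Fin.sum_univ_three]
      rw [h7] at h6
      linear_combination h6
    have hdet : (gm A).det ^ 5 = μ ^ 3 := by
      rw [← det_pow, ← gm_pow, hμ, det_smul, det_one, mul_one, Fintype.card_fin]
    have hdet0 : (gm A).det ≠ 0 := by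
      intro h0
      rw [h0] at hdet
      exact pow_ne_zero 3 hμ0 (by rw [← hdet]; norm_num)
    have h9 : μ ^ 9 = 1 := by
      calc μ ^ 9 = (μ ^ 3) ^ 3 := by ring
        _ = (gm A).det ^ 15 := by rw [← hdet]; ring
        _ = 1 := hpow15 _ hdet0
    have hμ1 : μ = 1 := by
      calc μ = μ ^ 5 * μ ^ 5 * (μ ^ 9)⁻¹ := by field_simp
        _ = 1 := by rw [hnorm, h9]; norm_num
    have hM : gm A ^ 5 = 1 := by rw [← gm_pow, hμ, hμ1, one_smul]
    have hprim : IsPrimitiveRoot ((ζ : F) ^ 3) 5 := by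
      have h10 : IsPrimitiveRoot ζ 15 := by rw [← hord15]; exact IsPrimitiveRoot.orderOf ζ
      exact (IsPrimitiveRoot.coe_units_iff.2 h10).pow (by norm_num) (by norm_num)
    obtain ⟨c, v, hv0, hv⟩ := exists_eig (by norm_num) hM hprim
    exact hne v c hv0 hv
  · -- `p = 13`
    obtain ⟨w, hw0, hw, hmv⟩ := exists_moved hF hA
    obtain ⟨hs0, hc⟩ := exists_prod hF hw0 hw hmv
    obtain ⟨g, hg1, hg2⟩ := hc (ζ : F) ζ.ne_zero
    obtain ⟨k, hk⟩ := hP g
    have hsc : Sc (Y A g) := by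
      have h6 : 4 ^ 3 + 1 ≡ fx (pm (Y A g)) [MOD 13] := by
        refine fx_modEq hF (k := k) ?_
        rw [← map_pow]
        exact pm_of_sc hk
      have hwi : hermForm 3 F 4 (gm A *ᵥ w) (gm A *ᵥ w) = 0 := by rw [herm_gm, hw]
      have h7 : 0 < fx (pm (Y A g)) := by
        unfold fx
        refine Finset.card_pos.2 ⟨mk (gm A *ᵥ w) (gm_ne_zero A hw0) hwi, Finset.mem_filter.2 ⟨Finset.mem_univ _, ?_⟩⟩
        rw [pm_fix_iff]
        exact ⟨_, hg1⟩
      have h8 : 1 < fx (pm (Y A g)) := by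
        have h9 : (4 ^ 3 + 1) % 13 = fx (pm (Y A g)) % 13 := h6
        norm_num at h9
        omega
      unfold fx at h8
      obtain ⟨P, hP1, Q, hQ1, hPQ⟩ := Finset.one_lt_card.1 h8
      have hP1' := (Finset.mem_filter.1 hP1).2
      have hQ1' := (Finset.mem_filter.1 hQ1).2
      obtain ⟨u, hu0, hu, rfl⟩ := exists_mk P
      obtain ⟨w', hw0', hw', rfl⟩ := exists_mk Q
      have huw := herm_ne_zero_of_ne hF hPQ
      obtain ⟨α, hα⟩ := (pm_fix_iff _ u hu0 hu).1 hP1'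
      obtain ⟨β, hβ⟩ := (pm_fix_iff _ w' hw0' hw').1 hQ1'
      obtain ⟨v, γ, hv, hvγ, hsp⟩ := third hF hu hw' huw hα hβ
      have hv0 : v ≠ 0 := by rintro rfl; exact hv (herm_zero_left _)
      obtain ⟨ν, hν⟩ := hk
      have hν0 := scalar_ne_zero hν
      have hval : ∀ (x : Fin 3 → F) (a : F), x ≠ 0 → gm (Y A g) *ᵥ x = a • x → a ^ 13 ^ k = ν := by
        intro x a hx0 hx
        have h9 := pow_mulVec hx (13 ^ k)
        rw [hν, smul_mulVec, one_mulVec] at h9
        exact (smul_left_injective F hx0 h9).symm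
      have heq : ∀ a b : F, a ^ 13 ^ k = ν → b ^ 13 ^ k = ν → a = b := by
        intro a b ha hb
        have ha0 : a ≠ 0 := by
          rintro rfl
          rw [zero_pow (by positivity)] at ha
          exact hν0 ha.symm
        have hb0 : b ≠ 0 := by
          rintro rfl
          rw [zero_pow (by positivity)] at hb
          exact hν0 hb.symm
        have h9 : (a * b⁻¹) ^ 13 ^ k = 1 := by
          rw [mul_pow, inv_pow, ha, hb, mul_inv_cancel₀ hν0]
        have h10 : (a * b⁻¹) ^ 15 = 1 := hpow15 _ (mul_ne_zero ha0 (inv_ne_zero hb0))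
        have h11 : a * b⁻¹ = 1 := by
          rw [← pow_one (a * b⁻¹), ← (show Nat.gcd (13 ^ k) 15 = 1 from Nat.Coprime.pow_left k (by norm_num))]
          exact pow_gcd_eq_one.2 ⟨h9, h10⟩
        exact (mul_inv_eq_one₀ hb0).1 h11
      have hαβ : β = α := heq _ _ (hval _ _ hw0' hβ) (hval _ _ hu0 hα)
      have hαγ : γ = α := heq _ _ (hval _ _ hv0 hvγ) (hval _ _ hu0 hα)
      refine ⟨α, ?_⟩
      apply Matrix.ext_of_mulVec_single
      intro i
      obtain ⟨a, b, c, habc⟩ := hsp (Pi.single i 1)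
      rw [habc, mulVec_add, mulVec_add, mulVec_smul, mulVec_smul, mulVec_smul, hα, hβ, hvγ, hαβ, hαγ, smul_mulVec,
        one_mulVec, smul_add, smul_add, smul_comm α a, smul_comm α b, smul_comm α c]
    have h6 := pow_of_sc hF hw0 hs0 ζ.ne_zero hg1 hg2 hsc
    have h7 : ζ ^ 10 = 1 := by
      apply Units.ext
      rw [Units.val_pow_eq_pow_val, Units.val_one, ← h6]
      ring
    have h8 := orderOf_dvd_of_pow_eq_one h7
    rw [hord15] at h8
    norm_num at h8

/-- **The `AA` problem for `PSU_3(q)`.** -/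
theorem core_psu3 (hF : Fintype.card F = q ^ 2) (hq : 3 ≤ q) : Core (PSU 3 F q) := by
  intro p hp hp2 x hx hR hP
  have hxp : x ^ p = 1 := by rw [← hx]; exact pow_orderOf_eq_one x
  obtain ⟨A, rfl⟩ := exists_linear hF hq hp.out hp2 hxp hR
  have hA : ¬ Sc A := by
    intro h
    rw [f₁_of_sc h, orderOf_one] at hx
    exact hp.out.one_lt.ne hx
  have hPM := pm_of_pa hF hP
  have h2 := not_odd hF (hp.out.odd_of_ne_two hp2) hA hPM
  have hAp : Sc (A ^ p) := by
    apply sc_of_f₁ hF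
    rw [map_pow, hxp]
  have hq4 : 4 ≤ q := by
    rcases Nat.lt_or_ge q 4 with h | h
    · exfalso
      have h3 : q = 3 := by omega
      subst h3
      have h4 : ((9 : ℕ) : F) = 0 := by
        have := Nat.cast_card_eq_zero F
        rw [hF] at this
        exact this
      apply (one_ne_zero : (1 : F) ≠ 0)
      push_cast at h4
      linear_combination h4 - 4 * h2
    · exact h
  exact even_case hF hq4 h2 hp2 hA hAp hR hPM

end Cfsg.Agent.H844.AAU
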